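import Mathlib
import Cfsg.Agent.PGroup.Basic

/-!
The Pauli group of degree `2 ^ n` over the field with three elements and the elements normalising it:
every isometry of the standard form of plus type is induced, with kernel the Pauli group.
-/

set_option autoImplicit false

namespace CfsgLib.Pauli

open Matrix Finset

variable {n : ℕ}

/-- The half space. -/
abbrev V (n : ℕ) := Fin n → ZMod 2

/-- The space carrying the form. -/
abbrev UU (n : ℕ) := V n × V n

/-- The representation space. -/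
abbrev E (n : ℕ) := V n → ZMod 3

/-- The cocycle. -/
def bil (u v : UU n) : ZMod 2 := u.2 ⬝ᵥ v.1

/-- The quadratic form. -/
def qq (u : UU n) : ZMod 2 := bil u u

/-- The sign of an element of `ZMod 2`. -/
def sgn (a : ZMod 2) : ZMod 3 := if a = 0 then 1 else -1

theorem sgn_add : ∀ a b : ZMod 2, sgn (a + b) = sgn a * sgn b := by decide

theorem sgn_zero : sgn 0 = 1 := rfl

theorem sgn_ne : ∀ a : ZMod 2, sgn a ≠ 0 := by decide

theorem sgn_inj : ∀ a b : ZMod 2, sgn a = sgn b → a = b := by decide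

theorem bil_add_left (u v w : UU n) : bil (u + v) w = bil u w + bil v w := by simp [bil, add_dotProduct]

theorem bil_add_right (u v w : UU n) : bil u (v + w) = bil u v + bil u w := by simp [bil, dotProduct_add]

theorem add_self (u : UU n) : u + u = 0 := by
  ext i <;> exact CharTwo.add_self_eq_zero _

theorem addv_self (a : V n) : a + a = 0 := by
  ext i; exact CharTwo.add_self_eq_zero _

/-- The operator attached to `(u, t)` as a linear map. -/
def Pl (u : UU n) (t : ZMod 2) : E n →ₗ[ZMod 3] E n where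
  toFun f := fun x => sgn (t + u.1 ⬝ᵥ x) * f (x + u.2)
  map_add' f g := by funext x; simp [mul_add]
  map_smul' c f := by funext x; simp; ring

theorem Pl_apply (u : UU n) (t : ZMod 2) (f : E n) (x : V n) :
    Pl u t f x = sgn (t + u.1 ⬝ᵥ x) * f (x + u.2) := rfl

theorem Pl_mul_apply (u v : UU n) (t s : ZMod 2) (f : E n) :
    Pl u t (Pl v s f) = Pl (u + v) (t + s + bil u v) f := by
  funext x
  simp only [Pl_apply, Prod.fst_add, Prod.snd_add, bil, add_dotProduct, dotProduct_add]
  rw [← mul_assoc, ← sgn_add, dotProduct_comm u.2 v.1, add_assoc x]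
  congr 2
  abel

theorem Pl_zero (f : E n) : Pl (0 : UU n) 0 f = f := by
  funext x; simp [Pl_apply, sgn_zero]

/-- The operator attached to `(u, t)`. -/
def P (u : UU n) (t : ZMod 2) : E n ≃ₗ[ZMod 3] E n :=
  LinearEquiv.ofLinearMap (Pl u t) (Pl u (t + bil u u))
    (LinearMap.ext fun f => by
      rw [LinearMap.comp_apply, Pl_mul_apply, add_self]
      have : t + (t + bil u u) + bil u u = 0 := by
        rw [add_assoc, add_assoc, CharTwo.add_self_eq_zero, add_zero, CharTwo.add_self_eq_zero]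
      rw [this]; exact Pl_zero f)
    (LinearMap.ext fun f => by
      rw [LinearMap.comp_apply, Pl_mul_apply, add_self]
      have : t + bil u u + t + bil u u = 0 := by
        rw [add_right_comm t, CharTwo.add_self_eq_zero, zero_add, CharTwo.add_self_eq_zero]
      rw [this]; exact Pl_zero f)

theorem P_apply (u : UU n) (t : ZMod 2) (f : E n) (x : V n) :
    P u t f x = sgn (t + u.1 ⬝ᵥ x) * f (x + u.2) := rfl

theorem P_mul (u v : UU n) (t s : ZMod 2) : P u t * P v s = P (u + v) (t + s + bil u v) :=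
  LinearEquiv.ext fun f => Pl_mul_apply u v t s f

theorem P_one : P (0 : UU n) 0 = 1 := LinearEquiv.ext fun f => Pl_zero f

theorem P_inv (u : UU n) (t : ZMod 2) : (P u t)⁻¹ = P u (t + bil u u) := by
  refine inv_eq_of_mul_eq_one_right ?_
  rw [P_mul, add_self, ← P_one]
  congr 1
  rw [add_assoc, add_assoc, CharTwo.add_self_eq_zero, add_zero, CharTwo.add_self_eq_zero]

theorem P_eq_mul (u : UU n) (t : ZMod 2) : P u t = P 0 t * P u 0 := by
  rw [P_mul]; simp [bil]

theorem P_injective {u v : UU n} {t s : ZMod 2} (h : P u t = P v s) : u = v ∧ t = s := by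
  classical
  have hb : u.2 = v.2 := by
    by_contra hne
    have := congrFun (LinearEquiv.congr_fun h (Pi.single u.2 1)) 0
    rw [P_apply, P_apply] at this
    simp [Ne.symm hne] at this
    exact sgn_ne _ this
  have hs : ∀ x, t + u.1 ⬝ᵥ x = s + v.1 ⬝ᵥ x := by
    intro x
    have := congrFun (LinearEquiv.congr_fun h (Pi.single (x + u.2) 1)) x
    rw [P_apply, P_apply, ← hb] at this
    simp at this
    exact sgn_inj _ _ this
  have ht : t = s := by simpa using hs 0
  refine ⟨Prod.ext ?_ hb, ht⟩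
  funext i
  have := hs (Pi.single i 1)
  rw [ht] at this
  simpa [dotProduct_single] using this

theorem P_central_sign (t : ZMod 2) (f : E n) : P (0 : UU n) t f = sgn t • f := by
  funext x; simp [P_apply]

theorem P_central (t : ZMod 2) (g : E n ≃ₗ[ZMod 3] E n) : g * P 0 t = P 0 t * g := by
  refine LinearEquiv.ext fun f => ?_
  show g (P 0 t f) = P 0 t (g f)
  rw [P_central_sign, P_central_sign, map_smul]

theorem sum_sgn {a : V n} (ha : a ≠ 0) : ∑ c : V n, sgn (a ⬝ᵥ c) = 0 := by
  classical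
  obtain ⟨i, hi⟩ := Function.ne_iff.1 ha
  have h1 : a ⬝ᵥ Pi.single i 1 = 1 := by
    rw [dotProduct_single, mul_one]
    exact (Fin.eq_one_of_ne_zero _ hi)
  refine Finset.sum_involution (fun c _ => c + Pi.single i 1) ?_ ?_ ?_ ?_
  · intro c _
    rw [dotProduct_add, h1, sgn_add]
    show _ + _ * (-1 : ZMod 3) = 0
    ring
  · intro c _ _ h
    have := congrFun h i
    simp at this
  · intro c _; exact Finset.mem_univ _
  · intro c _; rw [add_assoc, addv_self, add_zero]

theorem sum_sgn_eq (a : V n) :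
    ∑ c : V n, sgn (a ⬝ᵥ c) = if a = 0 then (Fintype.card (V n) : ZMod 3) else 0 := by
  split_ifs with h
  · subst h; simp [sgn_zero]
  · exact sum_sgn h

theorem card_ne_zero : (Fintype.card (V n) : ZMod 3) ≠ 0 := by
  simp only [Fintype.card_fun, Fintype.card_fin, ZMod.card, Nat.cast_pow]
  exact pow_ne_zero _ (by decide)

/-- Every automorphism of the plane law is induced by conjugation. -/
theorem exists_intertwiner (σ : UU n →+ UU n) (f : UU n → ZMod 2)
    (hf : ∀ u v, f (u + v) + bil u v = f u + f v + bil (σ u) (σ v)) :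
    ∃ g : E n ≃ₗ[ZMod 3] E n, ∀ u t, g * P u t * g⁻¹ = P (σ u) (t + f u) := by
  classical
  set P' : UU n → ZMod 2 → (E n ≃ₗ[ZMod 3] E n) := fun u t => P (σ u) (t + f u) with hP'
  have hmul : ∀ u v t s, P' u t * P' v s = P' (u + v) (t + s + bil u v) := by
    intro u v t s
    simp only [hP', P_mul, map_add]
    congr 1
    linear_combination hf u v * (-1 : ZMod 2)
  have hf0 : f 0 = 0 := by
    have := hf 0 0
    simp [bil] at this
    exact this
  have hsign : ∀ t (w : E n), P' 0 t w = sgn t • w := fun t w => by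
    simp only [hP', map_zero, hf0, add_zero]
    exact P_central_sign t w
  have hscal : ∀ u t (w : E n), P' u t w = sgn t • P' u 0 w := fun u t w => by
    have := hmul 0 u t 0
    rw [zero_add, add_zero, show bil 0 u = 0 by simp [bil], add_zero] at this
    rw [← this]
    exact hsign t _
  have happ : ∀ u v t s (w : E n), P' u t (P' v s w) = P' (u + v) (t + s + bil u v) w :=
    fun u v t s w => LinearEquiv.congr_fun (hmul u v t s) w
  have hswap : ∀ (a c : V n) (w : E n), P' (a, 0) 0 (P' (0, c) 0 w) = sgn (a ⬝ᵥ c) • P' (0, c) 0 (P' (a, 0) 0 w) := by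
    intro a c w
    rw [happ, happ, hscal _ (0 + 0 + bil _ _), hscal ((0, c) + (a, 0) : UU n) (0 + 0 + bil _ _),
      smul_smul, ← sgn_add, add_comm ((0, c) : UU n)]
    congr 2
    simp only [bil, zero_dotProduct, add_zero, zero_add, dotProduct_comm c a]
    rw [CharTwo.add_self_eq_zero]
  -- a common fixed vector
  obtain ⟨w, hw⟩ : ∃ w : E n, ∑ a : V n, P' (a, 0) 0 w ≠ 0 := by
    by_contra h
    push Not at h
    set w : E n := Pi.single 0 1
    have hc : ∀ c : V n, ∑ a : V n, sgn (a ⬝ᵥ c) • P' (a, 0) 0 w = 0 := by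
      intro c
      refine (P' (0, c) 0).injective ?_
      rw [map_zero, map_sum]
      simp only [map_smul, ← hswap]
      exact h _
    have h2 : ∑ c : V n, ∑ a : V n, sgn (a ⬝ᵥ c) • P' (a, 0) 0 w = 0 := by
      simp only [hc, Finset.sum_const_zero]
    rw [Finset.sum_comm] at h2
    simp only [← Finset.sum_smul, sum_sgn_eq, ite_smul, zero_smul] at h2
    rw [Finset.sum_ite_eq', if_pos (Finset.mem_univ _), smul_eq_zero] at h2
    rcases h2 with h2 | h2
    · exact card_ne_zero h2
    · rw [show ((0, 0) : UU n) = 0 from rfl, hsign, sgn_zero, one_smul] at h2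
      have := congrFun h2 0
      simp [w] at this
  set v := ∑ a : V n, P' (a, 0) 0 w with hv
  have hfix : ∀ a : V n, P' (a, 0) 0 v = v := by
    intro a
    rw [hv, map_sum]
    refine Fintype.sum_equiv (Equiv.addLeft a) _ _ fun b => ?_
    rw [happ]
    simp [bil]
  let Φ : E n →ₗ[ZMod 3] E n :=
    { toFun := fun g => ∑ b : V n, g b • P' (0, b) 0 v
      map_add' := fun g g' => by simp [add_smul, Finset.sum_add_distrib]
      map_smul' := fun c g => by simp [smul_smul, Finset.smul_sum] }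
  have hΦ : ∀ g, Φ g = ∑ b : V n, g b • P' (0, b) 0 v := fun g => rfl
  have hint : ∀ u t g, P' u t (Φ g) = Φ (P u t g) := by
    intro u t g
    rw [hΦ, hΦ, map_sum]
    refine Fintype.sum_equiv (Equiv.addRight u.2) _ _ fun b => ?_
    rw [map_smul, Equiv.coe_addRight, P_apply, add_assoc, addv_self, add_zero, happ]
    have hsplit : P' (u + (0, b)) (t + 0 + bil u (0, b)) v = sgn (t + u.1 ⬝ᵥ (b + u.2)) • P' (0, b + u.2) 0 v := by
      have h1 := happ (0, b + u.2) (u.1, 0) (t + u.1 ⬝ᵥ (b + u.2)) 0 v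
      rw [hfix, hscal (0, b + u.2)] at h1
      rw [h1]
      congr 2
      · ext i <;> simp [add_comm]
      · simp only [bil, dotProduct_comm (b + u.2) u.1, dotProduct_zero, add_zero]
        rw [add_assoc, CharTwo.add_self_eq_zero, add_zero]
    rw [hsplit, smul_smul]
    exact congrArg₂ (· • ·) (mul_comm _ _) rfl
  have hinj : Function.Injective Φ := by
    rw [injective_iff_map_eq_zero]
    intro g hg
    funext x
    have h1 : ∑ a : V n, sgn (a ⬝ᵥ x) • P' (a, 0) 0 (Φ g) = 0 := by simp [hg]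
    simp only [hΦ, map_sum, map_smul, hswap, hfix, Finset.smul_sum, smul_smul] at h1
    rw [Finset.sum_comm] at h1
    simp only [← Finset.sum_smul] at h1
    have h2 : ∀ b : V n, ∑ a : V n, sgn (a ⬝ᵥ x) * (g b * sgn (a ⬝ᵥ b)) =
        if x + b = 0 then g b * (Fintype.card (V n) : ZMod 3) else 0 := by
      intro b
      calc ∑ a : V n, sgn (a ⬝ᵥ x) * (g b * sgn (a ⬝ᵥ b)) = g b * ∑ a : V n, sgn ((x + b) ⬝ᵥ a) := by
            rw [Finset.mul_sum]
            refine Finset.sum_congr rfl fun a _ => ?_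
            rw [add_dotProduct, sgn_add, dotProduct_comm x, dotProduct_comm b]; ring
        _ = _ := by rw [sum_sgn_eq, mul_ite, mul_zero]
    simp only [h2, ite_smul, zero_smul] at h1
    rw [Finset.sum_eq_single x] at h1
    · rw [if_pos (addv_self x), smul_eq_zero, mul_eq_zero] at h1
      rcases h1 with (h1 | h1) | h1
      · exact h1
      · exact absurd h1 card_ne_zero
      · exact absurd ((P' (0, x) 0).map_eq_zero_iff.1 h1) hw
    · intro b _ hb
      rw [if_neg]
      intro h3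
      exact hb (by rw [← add_zero b, ← addv_self x, ← add_assoc, add_comm b x, h3, zero_add])
    · intro h3; exact absurd (Finset.mem_univ x) h3
  let ge : E n ≃ₗ[ZMod 3] E n := LinearEquiv.ofBijective Φ ⟨hinj, LinearMap.injective_iff_surjective.1 hinj⟩
  refine ⟨ge, fun u t => ?_⟩
  rw [mul_inv_eq_iff_eq_mul]
  exact LinearEquiv.ext fun g => (hint u t g).symm

/-- The correction turning an isometry into an automorphism of the law. -/
theorem exists_correction (σ : UU n ≃ₗ[ZMod 2] UU n) (hσ : ∀ u, qq (σ u) = qq u) :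
    ∃ f : UU n → ZMod 2, ∀ u v, f (u + v) + bil u v = f u + f v + bil (σ u) (σ v) := by
  classical
  let b := Module.finBasis (ZMod 2) (UU n)
  set D : UU n → UU n → ZMod 2 := fun u v => bil (σ u) (σ v) + bil u v with hD
  have hDl : ∀ u v w, D (u + v) w = D u w + D v w := fun u v w => by
    simp only [hD, map_add, bil_add_left]; ring
  have hDr : ∀ u v w, D u (v + w) = D u v + D u w := fun u v w => by
    simp only [hD, map_add, bil_add_right]; ring
  let DL : UU n →ₗ[ZMod 2] UU n →ₗ[ZMod 2] ZMod 2 :=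
    (AddMonoidHom.mk' (fun u => (AddMonoidHom.mk' (D u) (hDr u)).toZModLinearMap 2)
      (fun u v => LinearMap.ext fun w => hDl u v w)).toZModLinearMap 2
  set M : Matrix _ _ (ZMod 2) := Matrix.of fun i j => if i < j then D (b i) (b j) else 0 with hM
  have halt : ∀ u, D u u = 0 := fun u => by
    show qq (σ u) + qq u = 0
    rw [hσ, CharTwo.add_self_eq_zero]
  have hsymm : ∀ u v, D u v = D v u := fun u v => by
    have h := halt (u + v)
    rw [hDl, hDr, hDr, halt, halt, zero_add, add_zero] at h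
    exact CharTwo.add_eq_zero.1 h
  have hMD : M + Mᵀ = Matrix.of fun i j => D (b i) (b j) := by
    ext i j
    rcases lt_trichotomy i j with h | h | h
    · simp [hM, h, h.le, not_lt.2 h.le]
    · simp [hM, h, halt]
    · simp [hM, h, not_lt.2 h.le, hsymm (b i)]
  refine ⟨fun u => b.repr u ⬝ᵥ M *ᵥ b.repr u, fun u v => ?_⟩
  have hexp : D u v = b.repr u ⬝ᵥ (Matrix.of fun i j => D (b i) (b j)) *ᵥ b.repr v := by
    have h1 : D u v = DL (∑ i, b.repr u i • b i) (∑ j, b.repr v j • b j) := by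
      rw [b.sum_repr, b.sum_repr]; rfl
    rw [h1]
    simp only [map_sum, map_smul, LinearMap.sum_apply, LinearMap.smul_apply, smul_eq_mul, dotProduct, Matrix.mulVec,
      Matrix.of_apply, Finset.mul_sum]
    rw [Finset.sum_comm]
    refine Finset.sum_congr rfl fun i _ => Finset.sum_congr rfl fun j _ => ?_
    show _ * (_ * D (b i) (b j)) = _
    ring
  rw [← hMD, Matrix.add_mulVec, dotProduct_add, Matrix.mulVec_transpose, dotProduct_comm (b.repr u) (Matrix.vecMul _ M),
    ← Matrix.dotProduct_mulVec] at hexp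
  simp only [hD] at hexp
  simp only [map_add, Finsupp.coe_add, Matrix.mulVec_add, add_dotProduct, dotProduct_add]
  linear_combination (-1 : ZMod 2) * hexp + CharTwo.add_self_eq_zero (bil u v)

/-- An element commuting with all operators is a sign. -/
theorem scalar_of_commute (g : E n ≃ₗ[ZMod 3] E n) (h : ∀ u, g * P u 0 = P u 0 * g) : ∃ t, g = P 0 t := by
  classical
  set d : E n := Pi.single 0 1 with hd
  have hzero : ∀ x, x ≠ 0 → g d x = 0 := by
    intro x hx
    obtain ⟨i, hi⟩ := Function.ne_iff.1 hx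
    set u : UU n := (Pi.single i 1, 0)
    have hfd : P u 0 d = d := by
      funext y
      rw [P_apply, show u.2 = 0 from rfl, add_zero, zero_add]
      by_cases hy : y = 0
      · subst hy; simp [sgn_zero]
      · simp [hd, hy]
    have := LinearEquiv.congr_fun (h u) d
    change g (P u 0 d) = P u 0 (g d) at this
    rw [hfd] at this
    have h2 := congrFun this x
    rw [P_apply, show u.2 = 0 from rfl, add_zero, zero_add, single_dotProduct, one_mul,
      Fin.eq_one_of_ne_zero _ hi] at h2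
    have h5 : g d x = (-1 : ZMod 3) * g d x := h2
    have h3 : (2 : ZMod 3) * g d x = 0 := by linear_combination h5
    exact (mul_eq_zero.1 h3).resolve_left (by decide)
  have hgd : g d = g d 0 • d := by
    funext x
    by_cases hx : x = 0
    · subst hx; simp [hd]
    · rw [hzero x hx]; simp [hd, hx]
  have hy : ∀ y, g (Pi.single y 1) = g d 0 • (Pi.single y 1 : E n) := by
    intro y
    have hdy : P ((0, y) : UU n) 0 d = Pi.single y 1 := by
      funext x
      rw [P_apply, show ((0, y) : UU n).1 = 0 from rfl, show ((0, y) : UU n).2 = y from rfl, zero_dotProduct,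
        zero_add, sgn_zero, one_mul]
      by_cases hx : x = y
      · subst hx; simp [hd, addv_self]
      · have : x + y ≠ 0 := fun e => hx (by rw [← add_zero x, ← addv_self y, ← add_assoc, e, zero_add])
        simp [hd, hx, this]
    rw [← hdy]
    have := LinearEquiv.congr_fun (h (0, y)) d
    change g (P _ 0 d) = P _ 0 (g d) at this
    rw [this, hgd, map_smul]
    simp [hd]
  have hall : ∀ f : E n, g f = g d 0 • f := by
    intro f
    conv_lhs => rw [pi_eq_sum_univ' f]
    conv_rhs => rw [pi_eq_sum_univ' f]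
    rw [map_sum, Finset.smul_sum]
    refine Finset.sum_congr rfl fun y _ => ?_
    rw [map_smul, hy, smul_comm]
  have hc : g d 0 ≠ 0 := fun hc => by
    have := hall d
    rw [hc, zero_smul, map_eq_zero_iff g g.injective] at this
    have := congrFun this 0
    simp [hd] at this
  have : g d 0 = 1 ∨ g d 0 = -1 := by
    revert hc; generalize g d 0 = c; revert c; decide
  rcases this with hc1 | hc1
  · exact ⟨0, LinearEquiv.ext fun f => by rw [hall, hc1, P_central_sign, sgn_zero]⟩
  · exact ⟨1, LinearEquiv.ext fun f => by rw [hall, hc1, P_central_sign]; rfl⟩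

/-- A linear functional as a dot product. -/
theorem exists_dot (h : UU n → ZMod 2) (hadd : ∀ u v, h (u + v) = h u + h v) :
    ∃ c : UU n, ∀ u, h u = bil c u + bil u c := by
  classical
  let hl : UU n →ₗ[ZMod 2] ZMod 2 := (AddMonoidHom.mk' h hadd).toZModLinearMap 2
  refine ⟨(fun i => h (0, Pi.single i 1), fun i => h (Pi.single i 1, 0)), fun u => ?_⟩
  have h1 : ∀ (m : V n →ₗ[ZMod 2] ZMod 2) (a : V n), m a = (fun i => m (Pi.single i 1)) ⬝ᵥ a := by
    intro m a
    conv_lhs => rw [pi_eq_sum_univ' a]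
    rw [map_sum]
    refine Finset.sum_congr rfl fun i _ => ?_
    rw [map_smul, smul_eq_mul, mul_comm]
  have h2 := h1 (hl.comp (LinearMap.inl (ZMod 2) (V n) (V n))) u.1
  have h3 := h1 (hl.comp (LinearMap.inr (ZMod 2) (V n) (V n))) u.2
  have hsplit : u = (u.1, 0) + (0, u.2) := by ext i <;> simp
  conv_lhs => rw [hsplit, hadd]
  simp only [bil]
  rw [dotProduct_comm u.2]
  exact congrArg₂ (· + ·) h2 h3

variable (n) in
/-- The group of pairs normalising the Pauli group. -/
def R (K : Subgroup (UU n ≃ₗ[ZMod 2] UU n)) : Subgroup ((E n ≃ₗ[ZMod 3] E n) × (UU n ≃ₗ[ZMod 2] UU n)) where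
  carrier := {x | x.2 ∈ K ∧ ∀ u, ∃ t, x.1 * P u 0 * x.1⁻¹ = P (x.2 u) t}
  one_mem' := ⟨one_mem _, fun u => ⟨0, by simp⟩⟩
  mul_mem' := by
    rintro x y ⟨hx, hx'⟩ ⟨hy, hy'⟩
    refine ⟨mul_mem hx hy, fun u => ?_⟩
    obtain ⟨t, ht⟩ := hy' u
    obtain ⟨s, hs⟩ := hx' (y.2 u)
    refine ⟨t + s, ?_⟩
    calc x.1 * y.1 * P u 0 * (x.1 * y.1)⁻¹ = x.1 * (y.1 * P u 0 * y.1⁻¹) * x.1⁻¹ := by group
      _ = x.1 * (P 0 t * P (y.2 u) 0) * x.1⁻¹ := by rw [ht, P_eq_mul]
      _ = (x.1 * P 0 t) * P (y.2 u) 0 * x.1⁻¹ := by group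
      _ = P 0 t * (x.1 * P (y.2 u) 0 * x.1⁻¹) := by rw [P_central]; group
      _ = _ := by rw [hs, P_mul]; simp [bil]
  inv_mem' := by
    rintro x ⟨hx, hx'⟩
    refine ⟨inv_mem hx, fun u => ?_⟩
    obtain ⟨t, ht⟩ := hx' (x.2⁻¹ u)
    rw [show x.2 (x.2⁻¹ u) = u from x.2.apply_symm_apply u, P_eq_mul u t] at ht
    refine ⟨t, ?_⟩
    show x.1⁻¹ * P u 0 * x.1⁻¹⁻¹ = P (x.2⁻¹ u) t
    have h0 : P (0 : UU n) t * P 0 t = 1 := by
      rw [P_mul, add_zero, CharTwo.add_self_eq_zero, ← P_one]; simp [bil]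
    have h1 : P u 0 = P 0 t * (x.1 * P (x.2⁻¹ u) 0 * x.1⁻¹) := by rw [ht, ← mul_assoc, h0, one_mul]
    rw [h1, P_eq_mul (x.2⁻¹ u) t, inv_inv]
    calc x.1⁻¹ * (P 0 t * (x.1 * P (x.2⁻¹ u) 0 * x.1⁻¹)) * x.1 = x.1⁻¹ * P 0 t * x.1 * P (x.2⁻¹ u) 0 := by group
      _ = P 0 t * P (x.2⁻¹ u) 0 := by rw [P_central, mul_assoc (P 0 t), inv_mul_cancel, mul_one]

theorem mem_R {K : Subgroup (UU n ≃ₗ[ZMod 2] UU n)} {x : (E n ≃ₗ[ZMod 3] E n) × (UU n ≃ₗ[ZMod 2] UU n)} :
    x ∈ R n K ↔ x.2 ∈ K ∧ ∀ u, ∃ t, x.1 * P u 0 * x.1⁻¹ = P (x.2 u) t := Iff.rfl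

theorem P_mem_R (K : Subgroup (UU n ≃ₗ[ZMod 2] UU n)) (w : UU n) (s : ZMod 2) : (P w s, (1 : UU n ≃ₗ[ZMod 2] UU n)) ∈ R n K := by
  refine ⟨one_mem _, fun u => ⟨bil w u + bil u w, ?_⟩⟩
  show P w s * P u 0 * (P w s)⁻¹ = P u _
  rw [mul_inv_eq_iff_eq_mul, P_mul, P_mul, add_comm u w]
  congr 1
  have h1 := CharTwo.add_self_eq_zero (bil u w)
  linear_combination -h1

theorem exists_lift (σ : UU n ≃ₗ[ZMod 2] UU n) (hσ : ∀ u, qq (σ u) = qq u) :
    ∃ g : E n ≃ₗ[ZMod 3] E n, ∀ u, ∃ t, g * P u 0 * g⁻¹ = P (σ u) t := by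
  obtain ⟨f, hf⟩ := exists_correction σ hσ
  obtain ⟨g, hg⟩ := exists_intertwiner σ.toLinearMap.toAddMonoidHom f hf
  exact ⟨g, fun u => ⟨_, hg u 0⟩⟩

theorem eq_P_of_trivial {g : E n ≃ₗ[ZMod 3] E n} (h : ∀ u, ∃ t, g * P u 0 * g⁻¹ = P u t) : ∃ w s, g = P w s := by
  choose f hf using h
  have hadd : ∀ u v, f (u + v) = f u + f v := by
    intro u v
    have h1 : P (u + v) (f u + f v + bil u v) = P (u + v) (f (u + v) + bil u v) := by
      rw [← P_mul, ← hf u, ← hf v]
      calc g * P u 0 * g⁻¹ * (g * P v 0 * g⁻¹) = g * (P u 0 * P v 0) * g⁻¹ := by group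
        _ = g * (P 0 (bil u v) * P (u + v) 0) * g⁻¹ := by rw [P_mul, P_eq_mul, add_zero, zero_add]
        _ = (g * P 0 (bil u v)) * P (u + v) 0 * g⁻¹ := by group
        _ = P 0 (bil u v) * (g * P (u + v) 0 * g⁻¹) := by rw [P_central]; group
        _ = _ := by rw [hf, P_mul]; simp [bil, add_comm]
    exact (add_right_cancel (P_injective h1).2).symm
  obtain ⟨c, hc⟩ := exists_dot f hadd
  obtain ⟨t, ht⟩ := scalar_of_commute ((P c 0)⁻¹ * g) (fun u => by
    have h1 : g * P u 0 = P u (f u) * g := mul_inv_eq_iff_eq_mul.1 (hf u)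
    have h2 : P u (f u) = P c 0 * P u 0 * (P c 0)⁻¹ := by
      rw [eq_mul_inv_iff_mul_eq, P_mul, P_mul, hc, add_comm u c]
      congr 1
      have h3 := CharTwo.add_self_eq_zero (bil u c)
      linear_combination h3
    rw [mul_assoc, h1, h2]
    group)
  refine ⟨c, t, ?_⟩
  rw [inv_mul_eq_iff_eq_mul] at ht
  rw [ht, P_mul]
  simp [bil]

variable (n) in
/-- The Pauli group inside the group of pairs. -/
def pauli : Subgroup ((E n ≃ₗ[ZMod 3] E n) × (UU n ≃ₗ[ZMod 2] UU n)) where
  carrier := {x | x.2 = 1 ∧ ∃ u t, x.1 = P u t}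
  one_mem' := ⟨rfl, 0, 0, P_one.symm⟩
  mul_mem' := by
    rintro x y ⟨hx, u, t, hxu⟩ ⟨hy, v, s, hyv⟩
    exact ⟨show x.2 * y.2 = 1 by rw [hx, hy, one_mul], u + v, _, show x.1 * y.1 = _ by rw [hxu, hyv, P_mul]⟩
  inv_mem' := by
    rintro x ⟨hx, u, t, hxu⟩
    exact ⟨show x.2⁻¹ = 1 by rw [hx, inv_one], u, _, show x.1⁻¹ = _ by rw [hxu, P_inv]⟩

end CfsgLib.Pauli
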